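import Cfsg.Agent.Lib.SmallSt.Data

/-!
Uniqueness and automorphism groups of S(5, 6, 12) and S(4, 5, 11).
-/

set_option autoImplicit false

namespace Cfsg.Agent.Lib.SmallSt

open Cfsg Finset
open scoped Pointwise
open Cfsg.Agent.Lib.Golay (pc pcAux pc_eq_pcAux)

/-- a full certificate -/
structure Cert (t v : ℕ) where
  B0 : List ℕ
  T : Tr
  R : List (List (ℕ × ℕ) × List ℕ)
  v24 : v ≤ 24
  tv : t + 1 < v
  ck : check t v B0 T t [] [] = true
  cov : coverOK t v B0 = true
  rg : rigTab t v B0 R = true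

def cert12 : Cert 5 12 := ⟨B12, T12, R12, by norm_num, by norm_num, check12, cover12, rig12⟩

def cert11 : Cert 4 11 := ⟨B11, T11, R11, by norm_num, by norm_num, check11, cover11, rig11⟩

variable {t v : ℕ} (C : Cert t v)

theorem Cert.lt {b : ℕ} (hb : b ∈ C.B0) : b < 2 ^ v := by
  have h := C.cov
  unfold coverOK at h
  rw [Bool.and_eq_true, List.all_eq_true] at h
  have := h.1 b hb
  rw [Bool.and_eq_true] at this
  simpa [Nat.blt_eq] using this.1

theorem Cert.cover {m : ℕ} (hm : m < 2 ^ v) (hpc : pc m = t) : ∃ c ∈ C.B0, c &&& m = m := by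
  have h := C.cov
  unfold coverOK at h
  rw [Bool.and_eq_true, List.all_eq_true, List.all_eq_true] at h
  have := h.2 m (List.mem_range.2 hm)
  rw [Bool.or_eq_true, List.any_eq_true] at this
  rcases this with h | ⟨c, hc, h⟩
  · rw [hpc] at h; simp at h
  · exact ⟨c, hc, by simpa using h⟩

theorem exists_mask {v : ℕ} (hv : v ≤ 24) (s : Finset ℕ) (hs : ∀ i ∈ s, i < v) : ∃ m < 2 ^ v, bits m = s := by
  induction s using Finset.induction_on with
  | empty => exact ⟨0, by positivity, by ext i; simp [bits]⟩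
  | insert a s ha ih =>
    obtain ⟨m, hm, he⟩ := ih (fun i hi => hs i (mem_insert_of_mem hi))
    have hav := hs a (mem_insert_self a s)
    exact ⟨m ||| 1 <<< a, or_bit_lt hm hav, by rw [bits_or_bit (by omega), he]⟩

section

variable {α : Type*} [Fintype α] [DecidableEq α] {B : Set (Finset α)}

/-- a standard labelling -/
structure Lab (C : Cert t v) (B : Set (Finset α)) (ψ : ℕ → α) : Prop where
  inj : Inj ψ v
  blk : ∀ b ∈ C.B0, im ψ b ∈ B

variable (hα : Fintype.card α = v) (hB : IsSteinerSystem t (t + 1) B)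

include hα in
theorem exists_im {ψ : ℕ → α} (h : Inj ψ v) (hv : v ≤ 24) (s : Finset α) : ∃ m < 2 ^ v, im ψ m = s := by
  obtain ⟨m, hm, he⟩ := exists_mask hv ((range v).filter (fun i => ψ i ∈ s)) (fun i hi => by simpa using (mem_filter.1 hi).1)
  refine ⟨m, hm, ?_⟩
  unfold im
  rw [he]
  ext x
  rw [mem_image]
  constructor
  · rintro ⟨i, hi, rfl⟩; exact (mem_filter.1 hi).2
  · intro hx
    obtain ⟨i, hi, rfl⟩ := surj_of_inj hα h x
    exact ⟨i, mem_filter.2 ⟨mem_range.2 hi, hx⟩, rfl⟩

include hα hB in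
theorem Lab.iff {ψ : ℕ → α} (h : Lab C B ψ) (b : Finset α) : b ∈ B ↔ ∃ c ∈ C.B0, b = im ψ c := by
  constructor
  · intro hb
    have h1 : t ≤ b.card := by rw [hB.1 b hb]; omega
    obtain ⟨s, hs1, hs2⟩ := Finset.exists_subset_card_eq h1
    obtain ⟨m, hm, he⟩ := exists_im hα h.inj C.v24 s
    have h2 := card_im h.inj hm
    rw [he, hs2] at h2
    obtain ⟨c, hc, hcm⟩ := C.cover hm h2.symm
    refine ⟨c, hc, ?_⟩
    obtain ⟨d, _, hu⟩ := hB.2 s hs2
    rw [hu b ⟨hb, hs1⟩, hu (im ψ c) ⟨h.blk c hc, ?_⟩]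
    rw [← he, ← hcm, im_and h.inj (C.lt hc) hm]
    exact Finset.inter_subset_left
  · rintro ⟨c, hc, rfl⟩; exact h.blk c hc

include hα hB in
theorem exists_lab (x : Fin t ↪ α) : ∃ ψ : ℕ → α, Lab C B ψ ∧ ∀ i : Fin t, ψ i = x i := by
  have hne : Nonempty α := Fintype.card_pos_iff.1 (by have := C.tv; omega)
  set φ : ℕ → α := fun i => if h : i < t then x ⟨i, h⟩ else hne.some with hφ
  have h1 : ∀ i (h : i < t), φ i = x ⟨i, h⟩ := fun i h => by simp [hφ, h]
  have hinj : Inj φ t := by
    intro i hi j hj hij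
    rw [h1 i hi, h1 j hj] at hij
    have := x.injective hij
    simpa using this
  obtain ⟨ψ, p1, p2, p3⟩ := good_of_check hB hα (by have := C.tv; omega) C.v24 (fun b hb => C.lt hb) C.ck hinj
  exact ⟨ψ, ⟨p1, p3⟩, fun i => by rw [p2 i i.2, h1 i i.2]⟩

/-- the equivalence of a labelling -/
noncomputable def labE (hα : Fintype.card α = v) {ψ : ℕ → α} (h : Inj ψ v) : Fin v ≃ α :=
  Equiv.ofBijective (fun i : Fin v => ψ i) ⟨fun i j hij => Fin.ext (h i i.2 j j.2 hij), fun p => by
    obtain ⟨i, hi, he⟩ := surj_of_inj hα h p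
    exact ⟨⟨i, hi⟩, he⟩⟩

theorem labE_apply {ψ : ℕ → α} (h : Inj ψ v) (i : Fin v) : labE hα h i = ψ i := rfl

end

section

variable {α β : Type*} [Fintype α] [DecidableEq α] {B : Set (Finset α)} [Fintype β] [DecidableEq β] {B' : Set (Finset β)}
variable (hα : Fintype.card α = v) (hB : IsSteinerSystem t (t + 1) B) (hβ : Fintype.card β = v)
  (hB' : IsSteinerSystem t (t + 1) B')

include hα hB hβ hB' in
theorem iso_of_lab {ψ : ℕ → α} {χ : ℕ → β} (h : Lab C B ψ) (h' : Lab C B' χ) :
    ∃ e : α ≃ β, (∀ i < v, e (ψ i) = χ i) ∧ (fun b => b.image e) '' B = B' := by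
  refine ⟨(labE hα h.inj).symm.trans (labE hβ h'.inj), ?_, ?_⟩
  · intro i hi
    show labE hβ h'.inj ((labE hα h.inj).symm (ψ i)) = χ i
    have : ψ i = labE hα h.inj ⟨i, hi⟩ := rfl
    rw [this, Equiv.symm_apply_apply]
    rfl
  · set e := (labE hα h.inj).symm.trans (labE hβ h'.inj) with he
    have he1 : ∀ i < v, e (ψ i) = χ i := by
      intro i hi
      show labE hβ h'.inj ((labE hα h.inj).symm (ψ i)) = χ i
      have : ψ i = labE hα h.inj ⟨i, hi⟩ := rfl
      rw [this, Equiv.symm_apply_apply]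
      rfl
    have him : ∀ c ∈ C.B0, (im ψ c).image e = im χ c := by
      intro c hc
      unfold im
      rw [Finset.image_image]
      apply Finset.image_congr
      intro i hi
      exact he1 i (bits_lt (C.lt hc) hi)
    ext b
    constructor
    · rintro ⟨a, ha, rfl⟩
      obtain ⟨c, hc, rfl⟩ := (h.iff C hα hB a).1 ha
      show (im ψ c).image e ∈ B'
      rw [him c hc]; exact h'.blk c hc
    · intro hb
      obtain ⟨c, hc, rfl⟩ := (h'.iff C hβ hB' b).1 hb
      exact ⟨im ψ c, h.blk c hc, him c hc⟩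

include hα in
theorem exists_emb (htv : t ≤ v) : Nonempty (Fin t ↪ α) := by
  apply Function.Embedding.nonempty_of_card_le
  rw [Fintype.card_fin, hα]; exact htv

include C hα hB hβ hB' in
theorem iso_any : SetSystemIso B B' := by
  obtain ⟨x⟩ := exists_emb (t := t) hα (by have := C.tv; omega)
  obtain ⟨y⟩ := exists_emb (t := t) hβ (by have := C.tv; omega)
  obtain ⟨ψ, h, _⟩ := exists_lab C hα hB x
  obtain ⟨χ, h', _⟩ := exists_lab C hβ hB' y
  obtain ⟨e, _, he⟩ := iso_of_lab C hα hB hβ hB' h h'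
  exact ⟨e, he⟩

theorem mem_aut {g : Equiv.Perm α} : g ∈ setSystemAut B ↔ ∀ b ∈ B, g • b ∈ B := by
  unfold setSystemAut
  rw [MulAction.mem_stabilizer_iff]
  constructor
  · intro h b hb
    have : g • b ∈ g • B := Set.smul_mem_smul_set hb
    rwa [h] at this
  · intro h
    apply Set.eq_of_subset_of_ncard_le
    · rintro _ ⟨b, hb, rfl⟩; exact h b hb
    · rw [Set.ncard_smul_set]
    · exact Set.toFinite _

theorem smul_eq_image (g : Equiv.Perm α) (b : Finset α) : g • b = b.image g := rfl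

include C hα hB in
theorem trans_aut (x y : Fin t ↪ α) : ∃ g ∈ setSystemAut B, ∀ i, g (x i) = y i := by
  obtain ⟨ψ, h, hx⟩ := exists_lab C hα hB x
  obtain ⟨χ, h', hy⟩ := exists_lab C hα hB y
  obtain ⟨e, he1, he⟩ := iso_of_lab C hα hB hα hB h h'
  refine ⟨e, ?_, ?_⟩
  · rw [mem_aut]
    intro b hb
    rw [smul_eq_image]
    have h1 : b.image e ∈ (fun b => b.image e) '' B := ⟨b, hb, rfl⟩
    rw [he] at h1; exact h1
  · intro i
    rw [← hx, ← hy]
    exact he1 i (by have := C.tv; omega)

include C hα hB in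
theorem rigid_aut (x : Fin t ↪ α) {g : Equiv.Perm α} (hg : g ∈ setSystemAut B) (hx : ∀ i, g (x i) = x i) : g = 1 := by
  obtain ⟨ψ, h, hψ⟩ := exists_lab C hα hB x
  have hex : ∀ i : ℕ, ∃ j : ℕ, (i < v → (j < v ∧ ψ j = g (ψ i))) := by
    intro i
    obtain ⟨j, hj, he⟩ := surj_of_inj hα h.inj (g (ψ i))
    exact ⟨j, fun _ => ⟨hj, he⟩⟩
  choose θ hθ using hex
  have h1 : ∀ i < v, ∀ j < v, θ i = θ j → i = j := by
    intro i hi j hj hij
    have e1 := (hθ i hi).2
    have e2 := (hθ j hj).2
    rw [hij, e2] at e1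
    exact h.inj i hi j hj (g.injective e1.symm)
  have h2 : ∀ c ∈ C.B0, ∃ c' ∈ C.B0, bits c' = (bits c).image θ := by
    intro c hc
    have e1 := mem_aut.1 hg _ (h.blk c hc)
    obtain ⟨c', hc', he⟩ := (h.iff C hα hB _).1 e1
    refine ⟨c', hc', ?_⟩
    have e2 : (bits c').image ψ = ((bits c).image θ).image ψ := by
      have : (bits c').image ψ = im ψ c' := rfl
      rw [this, ← he, smul_eq_image, im, Finset.image_image, Finset.image_image]
      apply Finset.image_congr
      intro i hi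
      exact ((hθ i (bits_lt (C.lt hc) hi)).2).symm
    ext i
    constructor
    · intro hi
      have : ψ i ∈ ((bits c).image θ).image ψ := by rw [← e2]; exact mem_image_of_mem ψ hi
      obtain ⟨j, hj, hje⟩ := mem_image.1 this
      obtain ⟨k, hk, rfl⟩ := mem_image.1 hj
      have := h.inj _ (hθ k (bits_lt (C.lt hc) hk)).1 i (bits_lt (C.lt hc') hi) hje
      rw [← this]; exact hj
    · intro hi
      have : ψ i ∈ (bits c').image ψ := by rw [e2]; exact mem_image_of_mem ψ hi
      obtain ⟨j, hj, hje⟩ := mem_image.1 this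
      obtain ⟨k, hk, rfl⟩ := mem_image.1 hi
      have := h.inj j (bits_lt (C.lt hc') hj) _ (hθ k (bits_lt (C.lt hc) hk)).1 hje
      rw [← this]; exact hj
  have h3 : ∀ i < t, θ i = i := by
    intro i hi
    have hiv : i < v := by have := C.tv; omega
    apply h.inj _ (hθ i hiv).1 i hiv
    rw [(hθ i hiv).2]
    have := hψ ⟨i, hi⟩
    have e : ψ i = x ⟨i, hi⟩ := this
    rw [e, hx]
  have h4 := rigTab_sound C.v24 C.tv (fun b hb => C.lt hb) h1 (fun i hi => (hθ i hi).1) h2 h3 C.rg
  ext p
  obtain ⟨i, hi, rfl⟩ := surj_of_inj hα h.inj p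
  rw [← (hθ i hi).2, h4 i hi]; rfl

include C hα hB in
theorem stab_bot (x : Fin t ↪ α) : MulAction.stabilizer (setSystemAut B) x = ⊥ := by
  rw [eq_bot_iff]
  intro g hg
  rw [Subgroup.mem_bot]
  apply Subtype.ext
  apply rigid_aut C hα hB x g.2
  intro i
  have h1 : g • x = x := hg
  have := congrArg (fun y : Fin t ↪ α => y i) h1
  exact this

include C hα hB in
theorem pretrans : MulAction.IsMultiplyPretransitive (setSystemAut B) α t := by
  constructor
  intro x y
  obtain ⟨g, hg, h⟩ := trans_aut C hα hB x y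
  refine ⟨⟨g, hg⟩, ?_⟩
  ext i
  exact h i

include C hα hB in
theorem card_aut : Nat.card (setSystemAut B) = v.descFactorial t := by
  obtain ⟨x⟩ := exists_emb (t := t) hα (by have := C.tv; omega)
  have h2 : Nat.card (MulAction.orbit (setSystemAut B) x) * Nat.card (MulAction.stabilizer (setSystemAut B) x) =
      Nat.card (setSystemAut B) := by
    rw [← Nat.card_prod]
    exact Nat.card_congr (MulAction.orbitProdStabilizerEquivGroup (setSystemAut B) x)
  have h3 : MulAction.orbit (setSystemAut B) x = Set.univ := by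
    rw [Set.eq_univ_iff_forall]
    intro y
    obtain ⟨g, hg, h⟩ := trans_aut C hα hB x y
    refine ⟨⟨g, hg⟩, ?_⟩
    ext i
    exact h i
  rw [h3, Nat.card_congr (Equiv.Set.univ _), stab_bot C hα hB x, Subgroup.card_bot,
    mul_one, Nat.card_eq_fintype_card, Fintype.card_embedding_eq, Fintype.card_fin, hα] at h2
  exact h2.symm

/-- isomorphic systems have isomorphic groups -/
noncomputable def autEquiv (e : α ≃ β) (he : (fun b => b.image e) '' B = B') : setSystemAut B ≃* setSystemAut B' where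
  toFun g := ⟨e.permCongr g.1, by
    rw [mem_aut]
    intro b hb
    rw [← he] at hb ⊢
    obtain ⟨a, ha, rfl⟩ := hb
    refine ⟨g.1 • a, mem_aut.1 g.2 a ha, ?_⟩
    show (g.1 • a).image e = (a.image e).image (e.permCongr g.1)
    rw [smul_eq_image, Finset.image_image, Finset.image_image]
    congr 1
    ext x
    simp⟩
  invFun g := ⟨e.symm.permCongr g.1, by
    rw [mem_aut]
    intro a ha
    have h1 : a.image e ∈ B' := by rw [← he]; exact ⟨a, ha, rfl⟩
    have h2 := mem_aut.1 g.2 _ h1
    have h3 : g.1 • a.image e ∈ (fun b => b.image e) '' B := by rw [he]; exact h2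
    obtain ⟨c, hc, hce⟩ := h3
    have : e.symm.permCongr g.1 • a = c := by
      rw [smul_eq_image]
      apply Finset.image_injective e.injective
      show (a.image (e.symm.permCongr g.1)).image e = c.image e
      rw [show c.image e = g.1 • a.image e from hce, smul_eq_image, Finset.image_image, Finset.image_image]
      congr 1
      ext x
      simp
    rw [this]; exact hc⟩
  left_inv g := by apply Subtype.ext; ext x; simp
  right_inv g := by apply Subtype.ext; ext x; simp
  map_mul' g h := by apply Subtype.ext; ext x; simp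

end

end Cfsg.Agent.Lib.SmallSt
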