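import Cfsg.Agent.Lib.Golay.Basic

/-!
A certificate checker for the uniqueness of Steiner systems S(t, t+1, v), v ≤ 24.
-/

set_option autoImplicit false

namespace Cfsg.Agent.Lib.SmallSt

open Cfsg Finset
open Cfsg.Agent.Lib.Golay (pc pcAux pc_eq_pcAux)

/-- the bits of a mask -/
def bits (m : ℕ) : Finset ℕ := (range 24).filter (fun i => m.testBit i = true)

theorem mem_bits {m i : ℕ} : i ∈ bits m ↔ i < 24 ∧ m.testBit i = true := by simp [bits]

theorem pc_eq (m : ℕ) : pc m = (bits m).card := by
  rw [pc_eq_pcAux]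
  unfold bits
  have h : ∀ n, pcAux m n = ((range n).filter (fun i => m.testBit i = true)).card := by
    intro n
    induction n with
    | zero => rfl
    | succ n ih =>
      rw [pcAux, ih, Finset.range_add_one, Finset.filter_insert]
      by_cases hb : m.testBit n = true
      · rw [if_pos hb, Finset.card_insert_of_notMem (by simp), hb]; rfl
      · rw [if_neg hb]
        have : m.testBit n = false := by simpa using hb
        rw [this]; rfl
  exact h 24

theorem bits_lt {m n : ℕ} (h : m < 2 ^ n) {i : ℕ} (hi : i ∈ bits m) : i < n := by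
  by_contra hc
  rw [mem_bits] at hi
  rw [Nat.testBit_lt_two_pow (lt_of_lt_of_le h (Nat.pow_le_pow_right (by norm_num) (not_lt.1 hc)))] at hi
  exact absurd hi.2 (by simp)

variable {α : Type*} [DecidableEq α]

/-- the image of a mask under a labelling -/
def im (φ : ℕ → α) (m : ℕ) : Finset α := (bits m).image φ

/-- injectivity on the first `n` labels -/
def Inj (φ : ℕ → α) (n : ℕ) : Prop := ∀ i < n, ∀ j < n, φ i = φ j → i = j

theorem Inj.on {φ : ℕ → α} {n m : ℕ} (h : Inj φ n) (hm : m < 2 ^ n) : Set.InjOn φ (bits m) := by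
  intro i hi j hj hij
  exact h i (bits_lt hm hi) j (bits_lt hm hj) hij

theorem card_im {φ : ℕ → α} {n m : ℕ} (h : Inj φ n) (hm : m < 2 ^ n) : (im φ m).card = pc m := by
  rw [im, Finset.card_image_of_injOn (h.on hm), pc_eq]

theorem bits_and (c m : ℕ) : bits (c &&& m) = bits c ∩ bits m := by
  ext i; simp only [mem_bits, mem_inter, Nat.testBit_and, Bool.and_eq_true]; tauto

theorem im_and {φ : ℕ → α} {n c m : ℕ} (h : Inj φ n) (hc : c < 2 ^ n) (hm : m < 2 ^ n) :
    im φ (c &&& m) = im φ c ∩ im φ m := by
  unfold im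
  rw [bits_and]
  ext x
  simp only [mem_image, mem_inter]
  constructor
  · rintro ⟨i, ⟨h1, h2⟩, rfl⟩; exact ⟨⟨i, h1, rfl⟩, ⟨i, h2, rfl⟩⟩
  · rintro ⟨⟨i, h1, rfl⟩, ⟨j, h2, h3⟩⟩
    have := h j (bits_lt hm h2) i (bits_lt hc h1) h3
    subst this
    exact ⟨j, ⟨h1, h2⟩, rfl⟩

theorem bits_or_bit {s x : ℕ} (hx : x < 24) : bits (s ||| 1 <<< x) = insert x (bits s) := by
  ext i
  rw [mem_insert, mem_bits, mem_bits, Nat.testBit_or, Nat.shiftLeft_eq, one_mul, Nat.testBit_two_pow]
  constructor
  · rintro ⟨h1, h2⟩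
    by_cases he : i = x
    · exact Or.inl he
    · right
      have : ¬ x = i := fun e => he e.symm
      simp [this] at h2
      exact ⟨h1, h2⟩
  · rintro (rfl | ⟨h1, h2⟩)
    · exact ⟨hx, by simp⟩
    · exact ⟨h1, by simp [h2]⟩

theorem im_or_bit {φ : ℕ → α} {s x : ℕ} (hx : x < 24) : im φ (s ||| 1 <<< x) = insert (φ x) (im φ s) := by
  rw [im, bits_or_bit hx, Finset.image_insert, im]

theorem im_congr {φ ψ : ℕ → α} {n m : ℕ} (hm : m < 2 ^ n) (h : ∀ i < n, φ i = ψ i) : im φ m = im ψ m := by
  unfold im
  apply Finset.image_congr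
  intro i hi
  exact h i (bits_lt hm hi)

/-- a known contradiction with `m` being a block -/
def conflict (t : ℕ) (L N : List ℕ) (m : ℕ) : Bool := L.any (fun c => pc (c &&& m) == t) || N.any (fun c => c == m)

/-- all labelled points other than `x` conflict with the `t`-set `s` -/
def only (t n : ℕ) (L N : List ℕ) (s x : ℕ) : Bool :=
  (List.range n).all (fun y => y == x || (s.testBit y || conflict t L N (s ||| 1 <<< y)))

/-- certificates -/
inductive Tr
  | leaf (r : List ℕ)
  | abs (s : ℕ)
  | free (u : Tr)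
  | newp (s : ℕ) (u : Tr)
  | br (m : ℕ) (u w : Tr)
  | units (l : List (ℕ × ℕ)) (u : Tr)

/-- run a list of unit propagations -/
def runU (t v : ℕ) (N : List ℕ) : List (ℕ × ℕ) → List ℕ → Option (List ℕ)
  | [], L => some L
  | (s, x) :: l, L =>
    if Nat.blt s (2 ^ v) && (pc s == t) && Nat.blt x v && only t v L N s x then runU t v N l ((s ||| 1 <<< x) :: L) else none

/-- image of a mask under a relabelling -/
def actL (r : List ℕ) (v b : ℕ) : ℕ := (List.range v).foldl (fun a i => if b.testBit i then a ||| (1 <<< r.getD i 0) else a) 0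

/-- the final check -/
def leafOK (t v : ℕ) (B0 L : List ℕ) (r : List ℕ) : Bool :=
  (List.range v).all (fun i => Nat.blt (r.getD i 0) v && (List.range i).all (fun j => r.getD j 0 != r.getD i 0)) &&
  (List.range t).all (fun i => r.getD i 0 == i) && B0.all (fun b => L.any (fun c => c == actL r v b))

/-- the checker -/
def check (t v : ℕ) (B0 : List ℕ) : Tr → ℕ → List ℕ → List ℕ → Bool
  | .leaf r, n, L, _ => Nat.beq n v && leafOK t v B0 L r
  | .abs s, n, L, N => Nat.beq n v && Nat.blt s (2 ^ v) && (pc s == t) && only t v L N s v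
  | .free u, n, L, N => Nat.blt n v && check t v B0 u (n + 1) L N
  | .newp s u, n, L, N => Nat.blt n v && Nat.blt s (2 ^ n) && (pc s == t) && only t n L N s n &&
      check t v B0 u (n + 1) ((s ||| 1 <<< n) :: L) N
  | .br m u w, n, L, N => Nat.blt m (2 ^ n) && (pc m == t + 1) && check t v B0 u n (m :: L) N && check t v B0 w n L (m :: N)
  | .units l u, n, L, N => Nat.beq n v && (match runU t v N l L with
      | some L' => check t v B0 u n L' N
      | none => false)

/-- validity of a state -/
structure St (t : ℕ) (B : Set (Finset α)) (φ : ℕ → α) (n : ℕ) (L N : List ℕ) : Prop where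
  inj : Inj φ n
  ltL : ∀ m ∈ L, m < 2 ^ n
  ltN : ∀ m ∈ N, m < 2 ^ n
  blk : ∀ m ∈ L, im φ m ∈ B
  nblk : ∀ m ∈ N, im φ m ∉ B

section

variable {t v : ℕ} {B : Set (Finset α)} (hB : IsSteinerSystem t (t + 1) B)

include hB in
theorem block_eq {b c : Finset α} (hb : b ∈ B) (hc : c ∈ B) (h : t ≤ (b ∩ c).card) : b = c := by
  obtain ⟨s, hs1, hs2⟩ := Finset.exists_subset_card_eq h
  obtain ⟨d, _, hu⟩ := hB.2 s hs2
  rw [hu b ⟨hb, hs1.trans Finset.inter_subset_left⟩, hu c ⟨hc, hs1.trans Finset.inter_subset_right⟩]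

include hB in
theorem conflict_sound {φ : ℕ → α} {n : ℕ} {L N : List ℕ} (h : St t B φ n L N) {m : ℕ} (hm : m < 2 ^ n)
    (hc : conflict t L N m = true) : im φ m ∉ B := by
  intro hmB
  unfold conflict at hc
  rw [Bool.or_eq_true, List.any_eq_true, List.any_eq_true] at hc
  rcases hc with ⟨c, hcL, hc2⟩ | ⟨c, hcN, hc2⟩
  · rw [beq_iff_eq] at hc2
    have h1 := im_and h.inj (h.ltL c hcL) hm
    have h2 := card_im h.inj (show c &&& m < 2 ^ n from lt_of_le_of_lt Nat.and_le_right hm)
    rw [h1, hc2] at h2
    have h3 := block_eq hB (h.blk c hcL) hmB (by omega)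
    rw [h3, Finset.inter_self, hB.1 _ hmB] at h2
    omega
  · rw [beq_iff_eq] at hc2
    subst hc2
    exact h.nblk c hcN hmB

theorem or_bit_lt {s x n : ℕ} (hs : s < 2 ^ n) (hx : x < n) : s ||| 1 <<< x < 2 ^ n := by
  apply Nat.or_lt_two_pow hs
  rw [Nat.shiftLeft_eq, one_mul]
  exact Nat.pow_lt_pow_right (by norm_num) hx

include hB in
/-- the (t+1)-st point of the block on a labelled `t`-set -/
theorem only_sound {φ : ℕ → α} {n : ℕ} (hn : n ≤ 24) {L N : List ℕ} (h : St t B φ n L N) {s x : ℕ} (hs : s < 2 ^ n)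
    (hpc : pc s = t) (ho : only t n L N s x = true) :
    ∃ p : α, insert p (im φ s) ∈ B ∧ p ∉ im φ s ∧ ∀ y < n, p = φ y → y = x := by
  have hcs := card_im h.inj hs
  rw [hpc] at hcs
  obtain ⟨b, ⟨hb, hsb⟩, _⟩ := hB.2 (im φ s) hcs
  have hcb := hB.1 b hb
  have h1 : (b \ im φ s).card = 1 := by
    rw [Finset.card_sdiff_of_subset hsb, hcb, hcs]; omega
  obtain ⟨p, hp⟩ := Finset.card_eq_one.1 h1
  have hpm : p ∈ b \ im φ s := by rw [hp]; exact mem_singleton_self p
  rw [mem_sdiff] at hpm
  have hbe : insert p (im φ s) = b := by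
    apply Finset.eq_of_subset_of_card_le (Finset.insert_subset hpm.1 hsb)
    rw [Finset.card_insert_of_notMem hpm.2, hcs, hcb]
  refine ⟨p, by rw [hbe]; exact hb, hpm.2, ?_⟩
  intro y hy hpy
  by_contra hyx
  unfold only at ho
  rw [List.all_eq_true] at ho
  have h2 := ho y (List.mem_range.2 hy)
  rw [Bool.or_eq_true, Bool.or_eq_true, beq_iff_eq] at h2
  rcases h2 with h2 | h2 | h2
  · exact hyx h2
  · apply hpm.2
    rw [hpy]
    exact mem_image_of_mem φ (mem_bits.2 ⟨by omega, h2⟩)
  · apply conflict_sound hB h (or_bit_lt hs hy) h2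
    rw [im_or_bit (by omega), ← hpy, hbe]; exact hb

/-- all points are labelled -/
theorem surj_of_inj [Fintype α] (hv : Fintype.card α = v) {φ : ℕ → α} (h : Inj φ v) (p : α) : ∃ i < v, φ i = p := by
  have h1 : (range v).image φ = Finset.univ := by
    apply Finset.eq_univ_of_card
    rw [Finset.card_image_of_injOn, Finset.card_range, hv]
    intro i hi j hj hij
    exact h i (by simpa using hi) j (by simpa using hj) hij
  have h2 : p ∈ (range v).image φ := by rw [h1]; exact mem_univ p
  rw [mem_image] at h2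
  obtain ⟨i, hi, he⟩ := h2
  exact ⟨i, mem_range.1 hi, he⟩

include hB in
theorem runU_sound [Fintype α] (hv : Fintype.card α = v) (hv24 : v ≤ 24) {φ : ℕ → α} {N : List ℕ} : ∀ (l : List (ℕ × ℕ)) (L L' : List ℕ),
    St t B φ v L N → runU t v N l L = some L' → St t B φ v L' N := by
  intro l
  induction l with
  | nil =>
    intro L L' h e
    unfold runU at e
    rw [Option.some.injEq] at e
    rw [← e]; exact h
  | cons a l ih =>
    obtain ⟨s, x⟩ := a
    intro L L' h e
    unfold runU at e
    split_ifs at e with hc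
    rw [Bool.and_eq_true, Bool.and_eq_true, Bool.and_eq_true] at hc
    obtain ⟨⟨⟨h1, h2⟩, h3⟩, h4⟩ := hc
    have h1' : s < 2 ^ v := by simpa [Nat.blt_eq] using h1
    rw [beq_iff_eq] at h2
    have h3' : x < v := by simpa [Nat.blt_eq] using h3
    obtain ⟨p, hp1, hp2, hp3⟩ := only_sound hB hv24 h h1' h2 h4
    obtain ⟨y, hy, rfl⟩ := surj_of_inj hv h.inj p
    have := hp3 y hy rfl
    subst this
    refine ih _ L' ⟨h.inj, ?_, h.ltN, ?_, h.nblk⟩ e
    · intro m hm
      rcases List.mem_cons.1 hm with rfl | hm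
      · exact or_bit_lt h1' hy
      · exact h.ltL m hm
    · intro m hm
      rcases List.mem_cons.1 hm with rfl | hm
      · rw [im_or_bit (by omega)]; exact hp1
      · exact h.blk m hm

/-- the final statement -/
def Good (t v : ℕ) (B0 : List ℕ) (B : Set (Finset α)) (φ : ℕ → α) : Prop :=
  ∃ ψ : ℕ → α, Inj ψ v ∧ (∀ i < t, ψ i = φ i) ∧ ∀ b ∈ B0, im ψ b ∈ B

theorem bits_actL (r : List ℕ) (v : ℕ) (hv : v ≤ 24) (hr : ∀ i < v, r.getD i 0 < v) (b : ℕ) (hb : b < 2 ^ v) :
    bits (actL r v b) = (bits b).image (fun i => r.getD i 0) := by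
  have key : ∀ n ≤ v, bits ((List.range n).foldl (fun a i => if b.testBit i then a ||| (1 <<< r.getD i 0) else a) 0) =
      ((bits b).filter (fun i => i < n)).image (fun i => r.getD i 0) := by
    intro n
    induction n with
    | zero =>
      intro _
      ext i
      simp [bits]
    | succ n ih =>
      intro hn
      rw [List.range_succ, List.foldl_append, List.foldl_cons, List.foldl_nil]
      have ih' := ih (by omega)
      by_cases hbn : b.testBit n = true
      · rw [if_pos hbn, bits_or_bit (by have := hr n (by omega); omega), ih', ← Finset.image_insert (fun i => r.getD i 0)]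
        congr 1
        ext i
        rw [mem_insert, mem_filter, mem_filter, mem_bits]
        constructor
        · rintro (rfl | h)
          · exact ⟨⟨by omega, hbn⟩, by omega⟩
          · exact ⟨h.1, by omega⟩
        · rintro ⟨h1, h2⟩
          by_cases he : i = n
          · exact Or.inl he
          · exact Or.inr ⟨h1, by omega⟩
      · rw [if_neg hbn, ih']
        congr 1
        ext i
        rw [mem_filter, mem_filter, mem_bits]
        constructor
        · rintro ⟨h1, h2⟩; exact ⟨h1, by omega⟩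
        · rintro ⟨h1, h2⟩
          refine ⟨h1, ?_⟩
          have : i ≠ n := by rintro rfl; exact hbn h1.2
          omega
  have := key v le_rfl
  rw [actL, this]
  congr 1
  ext i
  rw [mem_filter]
  exact ⟨fun h => h.1, fun h => ⟨h, bits_lt hb h⟩⟩

theorem leaf_sound {φ : ℕ → α} {L N : List ℕ} (ht : t ≤ v) (hv24 : v ≤ 24) {B0 : List ℕ} (hB0 : ∀ b ∈ B0, b < 2 ^ v)
    (h : St t B φ v L N) {r : List ℕ} (hl : leafOK t v B0 L r = true) : Good t v B0 B φ := by
  unfold leafOK at hl
  rw [Bool.and_eq_true, Bool.and_eq_true, List.all_eq_true, List.all_eq_true, List.all_eq_true] at hl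
  obtain ⟨⟨h1, h2⟩, h3⟩ := hl
  have hr : ∀ i < v, r.getD i 0 < v := by
    intro i hi
    have := h1 i (List.mem_range.2 hi)
    rw [Bool.and_eq_true] at this
    simpa [Nat.blt_eq] using this.1
  have hr2 : ∀ i < v, ∀ j < i, r.getD j 0 ≠ r.getD i 0 := by
    intro i hi j hj
    have := h1 i (List.mem_range.2 hi)
    rw [Bool.and_eq_true, List.all_eq_true] at this
    have := this.2 j (List.mem_range.2 hj)
    simpa using this
  refine ⟨fun i => φ (r.getD i 0), ?_, ?_, ?_⟩
  · intro i hi j hj hij
    have h4 := h.inj _ (hr i hi) _ (hr j hj) hij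
    rcases Nat.lt_trichotomy i j with h5 | h5 | h5
    · exact absurd h4 (hr2 j hj i h5)
    · exact h5
    · exact absurd h4.symm (hr2 i hi j h5)
  · intro i hi
    have := h2 i (List.mem_range.2 hi)
    rw [beq_iff_eq] at this
    show φ (r.getD i 0) = φ i
    rw [this]
  · intro b hb
    have h4 := h3 b hb
    rw [List.any_eq_true] at h4
    obtain ⟨c, hc, h5⟩ := h4
    rw [beq_iff_eq] at h5
    have h6 : im (fun i => φ (r.getD i 0)) b = im φ c := by
      unfold im
      rw [h5, bits_actL r v hv24 hr b (hB0 b hb), Finset.image_image]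
      rfl
    rw [h6]; exact h.blk c hc

include hB in
/-- soundness of the checker -/
theorem check_sound [Fintype α] (hv : Fintype.card α = v) (ht : t ≤ v) (hv24 : v ≤ 24) {B0 : List ℕ} (hB0 : ∀ b ∈ B0, b < 2 ^ v) :
    ∀ (T : Tr) (n : ℕ) (L N : List ℕ) (φ : ℕ → α), t ≤ n → n ≤ v → St t B φ n L N → check t v B0 T n L N = true →
      Good t v B0 B φ := by
  intro T
  induction T with
  | leaf r =>
    intro n L N φ htn hnv h hc
    unfold check at hc
    rw [Bool.and_eq_true] at hc
    have hn : n = v := by simpa using hc.1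
    subst hn
    exact leaf_sound ht hv24 hB0 h hc.2
  | abs s =>
    intro n L N φ htn hnv h hc
    unfold check at hc
    rw [Bool.and_eq_true, Bool.and_eq_true, Bool.and_eq_true] at hc
    obtain ⟨⟨⟨h1, h2⟩, h3⟩, h4⟩ := hc
    have hn : n = v := by simpa using h1
    subst hn
    have h2' : s < 2 ^ n := by simpa [Nat.blt_eq] using h2
    rw [beq_iff_eq] at h3
    exfalso
    obtain ⟨p, hp1, hp2, hp3⟩ := only_sound hB hv24 h h2' h3 h4
    obtain ⟨y, hy, rfl⟩ := surj_of_inj hv h.inj p
    have := hp3 y hy rfl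
    omega
  | free u ih =>
    intro n L N φ htn hnv h hc
    unfold check at hc
    rw [Bool.and_eq_true] at hc
    have hn : n < v := by simpa [Nat.blt_eq] using hc.1
    -- a new point
    have : ∃ p : α, ∀ i < n, φ i ≠ p := by
      by_contra hcon
      push Not at hcon
      have h1 : Finset.univ ⊆ (range n).image φ := by
        intro p _
        obtain ⟨i, hi, he⟩ := hcon p
        exact mem_image.2 ⟨i, mem_range.2 hi, he⟩
      have h2 := (Finset.card_le_card h1).trans Finset.card_image_le
      rw [Finset.card_univ, hv, Finset.card_range] at h2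
      omega
    obtain ⟨p, hp⟩ := this
    set ψ : ℕ → α := fun i => if i < n then φ i else p with hψ
    have hψ1 : ∀ i < n, ψ i = φ i := fun i hi => by simp [hψ, hi]
    have hψ2 : ψ n = p := by simp [hψ]
    have hSt : St t B ψ (n + 1) L N := by
      refine ⟨?_, ?_, ?_, ?_, ?_⟩
      · intro i hi j hj hij
        by_cases h1 : i < n
        · by_cases h2 : j < n
          · rw [hψ1 i h1, hψ1 j h2] at hij; exact h.inj i h1 j h2 hij
          · have : j = n := by omega
            subst this
            rw [hψ1 i h1, hψ2] at hij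
            exact absurd hij (hp i h1)
        · have : i = n := by omega
          subst this
          by_cases h2 : j < i
          · rw [hψ1 j h2, hψ2] at hij
            exact absurd hij.symm (hp j h2)
          · omega
      · intro m hm; have := h.ltL m hm; rw [pow_succ]; omega
      · intro m hm; have := h.ltN m hm; rw [pow_succ]; omega
      · intro m hm; rw [im_congr (h.ltL m hm) hψ1]; exact h.blk m hm
      · intro m hm; rw [im_congr (h.ltN m hm) hψ1]; exact h.nblk m hm
    obtain ⟨χ, h1, h2, h3⟩ := ih (n + 1) L N ψ (by omega) (by omega) hSt hc.2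
    exact ⟨χ, h1, fun i hi => by rw [h2 i hi, hψ1 i (by omega)], h3⟩
  | newp s u ih =>
    intro n L N φ htn hnv h hc
    unfold check at hc
    rw [Bool.and_eq_true, Bool.and_eq_true, Bool.and_eq_true, Bool.and_eq_true] at hc
    obtain ⟨⟨⟨⟨h1, h2⟩, h3⟩, h4⟩, h5⟩ := hc
    have hn : n < v := by simpa [Nat.blt_eq] using h1
    have h2' : s < 2 ^ n := by simpa [Nat.blt_eq] using h2
    rw [beq_iff_eq] at h3
    obtain ⟨p, hp1, hp2, hp3⟩ := only_sound hB (by omega) h h2' h3 h4
    have hp : ∀ i < n, φ i ≠ p := by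
      intro i hi he
      have := hp3 i hi he.symm
      omega
    set ψ : ℕ → α := fun i => if i < n then φ i else p with hψ
    have hψ1 : ∀ i < n, ψ i = φ i := fun i hi => by simp [hψ, hi]
    have hψ2 : ψ n = p := by simp [hψ]
    have hSt : St t B ψ (n + 1) ((s ||| 1 <<< n) :: L) N := by
      refine ⟨?_, ?_, ?_, ?_, ?_⟩
      · intro i hi j hj hij
        by_cases h1 : i < n
        · by_cases h2 : j < n
          · rw [hψ1 i h1, hψ1 j h2] at hij; exact h.inj i h1 j h2 hij
          · have : j = n := by omega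
            subst this
            rw [hψ1 i h1, hψ2] at hij
            exact absurd hij (hp i h1)
        · have : i = n := by omega
          subst this
          by_cases h2 : j < i
          · rw [hψ1 j h2, hψ2] at hij
            exact absurd hij.symm (hp j h2)
          · omega
      · intro m hm
        rcases List.mem_cons.1 hm with rfl | hm
        · exact or_bit_lt (lt_trans h2' (Nat.pow_lt_pow_right (by norm_num) (by omega))) (by omega)
        · have := h.ltL m hm; rw [pow_succ]; omega
      · intro m hm; have := h.ltN m hm; rw [pow_succ]; omega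
      · intro m hm
        rcases List.mem_cons.1 hm with rfl | hm
        · rw [im_or_bit (by omega), hψ2, im_congr h2' hψ1]; exact hp1
        · rw [im_congr (h.ltL m hm) hψ1]; exact h.blk m hm
      · intro m hm; rw [im_congr (h.ltN m hm) hψ1]; exact h.nblk m hm
    obtain ⟨χ, h6, h7, h8⟩ := ih (n + 1) _ N ψ (by omega) (by omega) hSt h5
    exact ⟨χ, h6, fun i hi => by rw [h7 i hi, hψ1 i (by omega)], h8⟩
  | br m u w ihu ihw =>
    intro n L N φ htn hnv h hc
    unfold check at hc
    rw [Bool.and_eq_true, Bool.and_eq_true, Bool.and_eq_true] at hc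
    obtain ⟨⟨⟨h1, h2⟩, h3⟩, h4⟩ := hc
    have h1' : m < 2 ^ n := by simpa [Nat.blt_eq] using h1
    by_cases hm : im φ m ∈ B
    · refine ihu n (m :: L) N φ htn hnv ⟨h.inj, ?_, h.ltN, ?_, h.nblk⟩ h3
      · intro c hc
        rcases List.mem_cons.1 hc with rfl | hc
        · exact h1'
        · exact h.ltL c hc
      · intro c hc
        rcases List.mem_cons.1 hc with rfl | hc
        · exact hm
        · exact h.blk c hc
    · refine ihw n L (m :: N) φ htn hnv ⟨h.inj, h.ltL, ?_, h.blk, ?_⟩ h4
      · intro c hc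
        rcases List.mem_cons.1 hc with rfl | hc
        · exact h1'
        · exact h.ltN c hc
      · intro c hc
        rcases List.mem_cons.1 hc with rfl | hc
        · exact hm
        · exact h.nblk c hc
  | units l u ih =>
    intro n L N φ htn hnv h hc
    unfold check at hc
    rw [Bool.and_eq_true] at hc
    have hn : n = v := by simpa using hc.1
    subst hn
    have h2 := hc.2
    split at h2
    · rename_i L' e
      exact ih n L' N φ htn hnv (runU_sound hB hv hv24 l L L' h e) h2
    · exact absurd h2 (by simp)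

include hB in
/-- the conclusion: every labelling of `t` points extends to a standard labelling -/
theorem good_of_check [Fintype α] (hv : Fintype.card α = v) (ht : t ≤ v) (hv24 : v ≤ 24) {B0 : List ℕ} (hB0 : ∀ b ∈ B0, b < 2 ^ v)
    {T : Tr} (hT : check t v B0 T t [] [] = true) {φ : ℕ → α} (hφ : Inj φ t) : Good t v B0 B φ :=
  check_sound hB hv ht hv24 hB0 T t [] [] φ le_rfl ht
    ⟨hφ, by simp, by simp, by simp, by simp⟩ hT

end

end Cfsg.Agent.Lib.SmallSt
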