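import Cfsg.Agent.Lib.SmallSt.Aut
import Cfsg.Agent.Lib.Golay.SimpleD
import Cfsg.Agent.Lib.Golay.Misc
import Cfsg.Prelude.Def_Sporadic

/-!
The groups of S(5, 6, 12) and S(4, 5, 11) are the small Mathieu groups.
-/

set_option autoImplicit false

namespace Cfsg.Agent.Lib.SmallSt

open Cfsg Finset
open scoped Pointwise
open Cfsg.Agent.Lib.Golay

variable {d q : Finset GolayPt}

/-- the system on the complement of `q` in a dodecad -/
def dsys (d q : Finset GolayPt) : Set (Finset {x // x ∈ d \ q}) :=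
  {b | ∃ o ∈ octads, (o ∩ d).card = 6 ∧ q ⊆ o ∧ b.map (Function.Embedding.subtype _) = (o ∩ d) \ q}

theorem dsys_steiner (hd : d ∈ dodecads) (hq : q ⊆ d) {t : ℕ} (ht : q.card + t = 5) : IsSteinerSystem t (t + 1) (dsys d q) := by
  refine ⟨?_, ?_⟩
  · rintro b ⟨o, ho, h6, hqo, hb⟩
    rw [← Finset.card_map (Function.Embedding.subtype _), hb, Finset.card_sdiff_of_subset (Finset.subset_inter hqo hq), h6]
    omega
  · intro s hs
    set s' := s.map (Function.Embedding.subtype _) with hs'
    have hsd : s' ⊆ d \ q := by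
      intro x hx
      rw [hs', mem_map] at hx
      obtain ⟨y, _, rfl⟩ := hx
      exact y.2
    have hdis : Disjoint q s' := by
      rw [Finset.disjoint_left]
      intro x hx hx'
      exact (mem_sdiff.1 (hsd hx')).2 hx
    have hc : (q ∪ s').card = 5 := by
      rw [Finset.card_union_of_disjoint hdis, hs', Finset.card_map, hs, ht]
    have hqs : q ∪ s' ⊆ d := Finset.union_subset hq (hsd.trans Finset.sdiff_subset)
    obtain ⟨o, ⟨ho, hos⟩, hu⟩ := steiner.2 (q ∪ s') hc
    have h6 : (o ∩ d).card = 6 := by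
      have h1 := Finset.card_le_card (Finset.subset_inter hos hqs)
      rw [hc] at h1
      rcases octad_dodecad_inter ho hd with h | h | h <;> omega
    refine ⟨((o ∩ d) \ q).subtype (fun x => x ∈ d \ q), ⟨⟨o, ho, h6, Finset.union_subset_left hos, ?_⟩, ?_⟩, ?_⟩
    · ext x
      simp only [mem_map, Finset.mem_subtype, Function.Embedding.subtype_apply, mem_sdiff, mem_inter]
      constructor
      · rintro ⟨y, hy, rfl⟩; exact hy
      · intro hx
        exact ⟨⟨x, by rw [mem_sdiff]; exact ⟨hx.1.2, hx.2⟩⟩, hx, rfl⟩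
    · intro x hx
      rw [Finset.mem_subtype, mem_sdiff, mem_inter]
      have hx' : (x : GolayPt) ∈ s' := mem_map_of_mem _ hx
      exact ⟨⟨hos (mem_union_right _ hx'), (hqs (mem_union_right _ hx'))⟩, (mem_sdiff.1 x.2).2⟩
    · rintro b ⟨⟨o', ho', h6', hqo', hb⟩, hsb⟩
      have : o' = o := by
        apply hu
        refine ⟨ho', Finset.union_subset hqo' ?_⟩
        have h1 : s' ⊆ b.map (Function.Embedding.subtype _) := Finset.map_subset_map.2 hsb
        rw [hb] at h1
        exact h1.trans (Finset.sdiff_subset.trans Finset.inter_subset_left)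
      subst this
      apply Finset.map_injective (Function.Embedding.subtype _)
      rw [hb]
      ext x
      simp only [mem_map, Finset.mem_subtype, Function.Embedding.subtype_apply, mem_sdiff, mem_inter]
      constructor
      · intro hx
        exact ⟨⟨x, by rw [mem_sdiff]; exact ⟨hx.1.2, hx.2⟩⟩, hx, rfl⟩
      · rintro ⟨y, hy, rfl⟩; exact hy

/-- the restriction of the stabiliser -/
noncomputable def dhom (H : Subgroup (Equiv.Perm GolayPt)) (d q : Finset GolayPt)
    (hH : ∀ g ∈ H, g ∈ M24 ∧ g • d = d ∧ ∀ x ∈ q, g x = x) : H →* setSystemAut (dsys d q) where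
  toFun g := ⟨(g : Equiv.Perm GolayPt).subtypePerm (fun x => by
      have h1 : ∀ x, g.1 x ∈ d ↔ x ∈ d := by
        intro x
        conv_lhs => rw [← (hH g g.2).2.1]
        exact smul_mem_smul_iff' _ _ _
      have h2 : ∀ x, g.1 x ∈ q ↔ x ∈ q := by
        intro x
        constructor
        · intro h
          have := (hH g g.2).2.2 _ h
          rw [g.1.injective this] at h; exact h
        · intro h; rw [(hH g g.2).2.2 x h]; exact h
      rw [mem_sdiff, mem_sdiff, h1, h2]), by
    rw [mem_aut]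
    rintro b ⟨o, ho, h6, hqo, hb⟩
    have hgd := (hH g g.2).2.1
    have hgq : g.1 • q = q := by
      rw [smul_eq_image]
      ext x
      rw [mem_image]
      constructor
      · rintro ⟨y, hy, rfl⟩; rw [(hH g g.2).2.2 y hy]; exact hy
      · intro hx; exact ⟨x, hx, (hH g g.2).2.2 x hx⟩
    refine ⟨g.1 • o, smul_mem_octads (hH g g.2).1 ho, ?_, ?_, ?_⟩
    · conv_lhs => rw [← hgd]
      rw [← Finset.smul_finset_inter, Finset.card_smul_finset, h6]
    · conv_lhs => rw [← hgq]
      exact Finset.smul_finset_subset_smul_finset hqo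
    · have h1 : (g.1 • o ∩ d) \ q = g.1 • ((o ∩ d) \ q) := by
        rw [Finset.smul_finset_sdiff, Finset.smul_finset_inter, hgd, hgq]
      have key : ∀ σ : Equiv.Perm {x // x ∈ d \ q}, (∀ y, (σ y : GolayPt) = g.1 y) →
          (b.image σ).map (Function.Embedding.subtype _) = (b.map (Function.Embedding.subtype _)).image g.1 := by
        intro σ hσ
        rw [Finset.map_eq_image, Finset.map_eq_image, Finset.image_image, Finset.image_image]
        apply Finset.image_congr
        intro y _
        exact hσ y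
      rw [h1, ← hb]
      exact key _ (fun _ => rfl)⟩
  map_one' := by apply Subtype.ext; ext x; rfl
  map_mul' g h := by apply Subtype.ext; ext x; rfl

theorem dhom_inj (H : Subgroup (Equiv.Perm GolayPt)) (hd : d ∈ dodecads)
    (hH : ∀ g ∈ H, g ∈ M24 ∧ g • d = d ∧ ∀ x ∈ q, g x = x) : Function.Injective (dhom H d q hH) := by
  rw [injective_iff_map_eq_one]
  intro g hg
  apply Subtype.ext
  apply fix_of_fix_dodecad hd (hH g g.2).1 (hH g g.2).2.1
  intro x hx
  by_cases hxq : x ∈ q
  · exact (hH g g.2).2.2 x hxq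
  · have h1 : (dhom H d q hH g : Equiv.Perm {x // x ∈ d \ q}) ⟨x, mem_sdiff.2 ⟨hx, hxq⟩⟩ = ⟨x, mem_sdiff.2 ⟨hx, hxq⟩⟩ := by
      rw [hg]; rfl
    exact congrArg Subtype.val h1

theorem simple_of_inj {G H : Type*} [Group G] [Group H] [Finite H] [IsSimpleGroup G] (φ : G →* H) (hφ : Function.Injective φ)
    (hc : Nat.card H = Nat.card G) : IsSimpleGroup H := by
  have : Finite G := Finite.of_injective φ hφ
  have hb : Function.Bijective φ := by
    have := Fintype.ofFinite G
    have := Fintype.ofFinite H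
    rw [Fintype.bijective_iff_injective_and_card]
    exact ⟨hφ, by rw [← Nat.card_eq_fintype_card, ← Nat.card_eq_fintype_card, hc]⟩
  exact (MulEquiv.ofBijective φ hb).symm.isSimpleGroup

variable {α : Type*} [Fintype α] [DecidableEq α] {B : Set (Finset α)}

theorem isM12_of (hα : Fintype.card α = 12) (hB : IsSteinerSystem 5 6 B) : IsM12 (setSystemAut B) := by
  have hd := dodU_mem
  have hst := dsys_steiner (q := ∅) hd (Finset.empty_subset _) (t := 5) rfl
  have hcd : Fintype.card {x // x ∈ st dodU \ ∅} = 12 := by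
    rw [Fintype.card_coe, Finset.sdiff_empty, (mem_dodecads.1 hd).2]
  obtain ⟨e, he⟩ := iso_any cert12 hα hB hcd hst
  have hca := card_aut cert12 hα hB
  have hH : ∀ g ∈ m12, g ∈ M24 ∧ g • st dodU = st dodU ∧ ∀ x ∈ (∅ : Finset GolayPt), g x = x :=
    fun g hg => ⟨hg.1, hg.2, by simp⟩
  have := isSimple_m12
  have h1 : IsSimpleGroup (setSystemAut (dsys (st dodU) ∅)) := by
    apply simple_of_inj (dhom m12 (st dodU) ∅ hH) (dhom_inj m12 hd hH)
    rw [card_aut cert12 hcd hst, card_m12]; rfl
  exact ⟨(autEquiv e he).isSimpleGroup, by rw [hca]; rfl⟩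

theorem isM11_of (hα : Fintype.card α = 11) (hB : IsSteinerSystem 4 5 B) : IsM11 (setSystemAut B) := by
  have hd := dodU_mem
  have hq : ({pt 0} : Finset GolayPt) ⊆ st dodU := Finset.singleton_subset_iff.2 dodPt_mem
  have hst := dsys_steiner (q := {pt 0}) hd hq (t := 4) rfl
  have hcd : Fintype.card {x // x ∈ st dodU \ {pt 0}} = 11 := by
    rw [Fintype.card_coe, Finset.card_sdiff_of_subset hq, (mem_dodecads.1 hd).2]; rfl
  obtain ⟨e, he⟩ := iso_any cert11 hα hB hcd hst
  have hca := card_aut cert11 hα hB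
  have hH : ∀ g ∈ m11, g ∈ M24 ∧ g • st dodU = st dodU ∧ ∀ x ∈ ({pt 0} : Finset GolayPt), g x = x := by
    intro g hg
    refine ⟨hg.1.1, hg.1.2, ?_⟩
    intro x hx
    rw [mem_singleton.1 hx]; exact hg.2
  have := isSimple_m11
  have h1 : IsSimpleGroup (setSystemAut (dsys (st dodU) {pt 0})) := by
    apply simple_of_inj (dhom m11 (st dodU) {pt 0} hH) (dhom_inj m11 hd hH)
    rw [card_aut cert11 hcd hst, card_m11]; rfl
  exact ⟨(autEquiv e he).isSimpleGroup, by rw [hca]; rfl⟩

end Cfsg.Agent.Lib.SmallSt
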