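import Cfsg.Agent.Lib.SmallSt.Engine

/-!
Consequences of the standard labelling: isomorphism, transitivity and rigidity.
-/

set_option autoImplicit false

namespace Cfsg.Agent.Lib.SmallSt

open Cfsg Finset
open Cfsg.Agent.Lib.Golay (pc pcAux pc_eq_pcAux)

/-- every `t`-subset is covered -/
def coverOK (t v : ℕ) (B0 : List ℕ) : Bool :=
  B0.all (fun b => Nat.blt b (2 ^ v) && (pc b == t + 1)) &&
  (List.range (2 ^ v)).all (fun m => pc m != t || B0.any (fun c => c &&& m == m))

/-- rigidity steps -/
def rigRun (v : ℕ) (B0 : List ℕ) (r : List ℕ) : List (ℕ × ℕ) → ℕ → Option ℕ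
  | [], K => some K
  | (s, x) :: l, K =>
    if Nat.blt s (2 ^ v) && Nat.blt x v && (K &&& s == s) && !(s.testBit x) && B0.any (fun c => c == s ||| 1 <<< x) &&
      B0.all (fun c => c &&& actL r v s != actL r v s || c == actL r v s ||| 1 <<< r.getD x 0) && Nat.blt (r.getD x 0) v
    then rigRun v B0 r l (K ||| 1 <<< x) else none

/-- a contradiction -/
def rigFail (v : ℕ) (B0 : List ℕ) (r : List ℕ) (K : ℕ) : Bool :=
  B0.any (fun b => K &&& b == b && !(B0.any (fun c => c == actL r v b))) ||
  (List.range v).any (fun i => (List.range i).any (fun j => K.testBit i && K.testBit j && r.getD i 0 == r.getD j 0))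

/-- identity conclusion -/
def rigId (v : ℕ) (r : List ℕ) (K : ℕ) : Bool :=
  (K == 2 ^ v - 1) && (List.range v).all (fun i => r.getD i 0 == i)

/-- the table check -/
def rigTab (t v : ℕ) (B0 : List ℕ) (R : List (List (ℕ × ℕ) × List ℕ)) : Bool :=
  (List.range v).all (fun y =>
    (List.range t).all (fun i => (R.getD y ([], [])).2.getD i 0 == i) && ((R.getD y ([], [])).2.getD (t + 1) 0 == y) &&
    (List.range v).all (fun i => Nat.blt ((R.getD y ([], [])).2.getD i 0) v) &&
    match rigRun v B0 (R.getD y ([], [])).2 (R.getD y ([], [])).1 ((2 ^ t - 1) ||| 1 <<< (t + 1)) with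
    | some K => rigFail v B0 (R.getD y ([], [])).2 K || rigId v (R.getD y ([], [])).2 K
    | none => false)

theorem bits_inj {a b : ℕ} (ha : a < 2 ^ 24) (hb : b < 2 ^ 24) (h : bits a = bits b) : a = b := by
  apply Nat.eq_of_testBit_eq
  intro i
  by_cases hi : i < 24
  · have h1 : i ∈ bits a ↔ i ∈ bits b := by rw [h]
    rw [mem_bits, mem_bits] at h1
    have h2 : a.testBit i = true ↔ b.testBit i = true := ⟨fun h => (h1.1 ⟨hi, h⟩).2, fun h => (h1.2 ⟨hi, h⟩).2⟩
    cases ha' : a.testBit i <;> cases hb' : b.testBit i <;> simp_all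
  · rw [Nat.testBit_lt_two_pow (lt_of_lt_of_le ha (Nat.pow_le_pow_right (by norm_num) (not_lt.1 hi))),
      Nat.testBit_lt_two_pow (lt_of_lt_of_le hb (Nat.pow_le_pow_right (by norm_num) (not_lt.1 hi)))]

theorem actL_lt (r : List ℕ) (v : ℕ) (hr : ∀ i < v, r.getD i 0 < v) (b : ℕ) : actL r v b < 2 ^ v := by
  have key : ∀ n ≤ v, (List.range n).foldl (fun a i => if b.testBit i then a ||| (1 <<< r.getD i 0) else a) 0 < 2 ^ v := by
    intro n
    induction n with
    | zero => intro _; simp
    | succ n ih =>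
      intro hn
      rw [List.range_succ, List.foldl_append, List.foldl_cons, List.foldl_nil]
      split_ifs
      · exact or_bit_lt (ih (by omega)) (hr n (by omega))
      · exact ih (by omega)
  exact key v le_rfl

theorem bits_and_self {a b : ℕ} (hb : b < 2 ^ 24) : a &&& b = b ↔ bits b ⊆ bits a := by
  constructor
  · intro h i hi
    rw [← h, bits_and] at hi
    exact (mem_inter.1 hi).1
  · intro h
    apply bits_inj (lt_of_le_of_lt Nat.and_le_right hb) hb
    rw [bits_and]; exact Finset.inter_eq_right.2 h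

section rig

variable {t v : ℕ} {B0 : List ℕ} {θ : ℕ → ℕ}

theorem rigRun_sound (hv24 : v ≤ 24) (hB0 : ∀ b ∈ B0, b < 2 ^ v) (hθ : ∀ i < v, ∀ j < v, θ i = θ j → i = j)
    (hP : ∀ c ∈ B0, ∃ c' ∈ B0, bits c' = (bits c).image θ) {r : List ℕ} (hr : ∀ i < v, r.getD i 0 < v) :
    ∀ (l : List (ℕ × ℕ)) (K K' : ℕ), K < 2 ^ v → (∀ i ∈ bits K, θ i = r.getD i 0) → rigRun v B0 r l K = some K' →
      K' < 2 ^ v ∧ ∀ i ∈ bits K', θ i = r.getD i 0 := by
  intro l
  induction l with
  | nil =>
    intro K K' h1 h2 e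
    unfold rigRun at e
    rw [Option.some.injEq] at e
    rw [← e]; exact ⟨h1, h2⟩
  | cons a l ih =>
    obtain ⟨s, x⟩ := a
    intro K K' h1 h2 e
    unfold rigRun at e
    split_ifs at e with hc
    simp only [Bool.and_eq_true] at hc
    obtain ⟨⟨⟨⟨⟨⟨c1, c2⟩, c3⟩, c4⟩, c5⟩, c6⟩, c7⟩ := hc
    have c1' : s < 2 ^ v := by simpa [Nat.blt_eq] using c1
    have c2' : x < v := by simpa [Nat.blt_eq] using c2
    rw [beq_iff_eq] at c3
    have c4' : s.testBit x = false := by simpa using c4
    rw [List.any_eq_true] at c5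
    obtain ⟨c, hc, hce⟩ := c5
    rw [beq_iff_eq] at hce
    rw [List.all_eq_true] at c6
    have hs24 : s < 2 ^ 24 := lt_of_lt_of_le c1' (Nat.pow_le_pow_right (by norm_num) hv24)
    have hsub : bits s ⊆ bits K := (bits_and_self hs24).1 c3
    have h3 : bits (actL r v s) = (bits s).image θ := by
      rw [bits_actL r v hv24 hr s c1']
      apply Finset.image_congr
      intro i hi
      exact (h2 i (hsub hi)).symm
    obtain ⟨c', hc', hbc'⟩ := hP c hc
    have h4 := c6 c' hc'
    have h5 : bits c = insert x (bits s) := by rw [hce, bits_or_bit (by omega)]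
    have h6 : actL r v s < 2 ^ 24 := lt_of_lt_of_le (actL_lt r v hr s) (Nat.pow_le_pow_right (by norm_num) hv24)
    have h7 : c' &&& actL r v s = actL r v s := by
      rw [bits_and_self h6, h3, hbc', h5]
      exact Finset.image_subset_image (Finset.subset_insert _ _)
    rw [h7] at h4
    simp only [bne_self_eq_false, Bool.false_or, beq_iff_eq] at h4
    have c7' : r.getD x 0 < v := by simpa [Nat.blt_eq] using c7
    have h8 : θ x ∈ bits c' := by rw [hbc', h5]; exact mem_image_of_mem θ (mem_insert_self _ _)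
    rw [h4, bits_or_bit (by omega), mem_insert, h3] at h8
    have h9 : θ x = r.getD x 0 := by
      rcases h8 with h | h
      · exact h
      · rw [mem_image] at h
        obtain ⟨j, hj, hje⟩ := h
        have := hθ j (bits_lt c1' hj) x c2' hje
        subst this
        rw [mem_bits, c4'] at hj
        exact absurd hj.2 (by simp)
    refine ih _ K' (or_bit_lt h1 c2') ?_ e
    intro i hi
    rw [bits_or_bit (by omega), mem_insert] at hi
    rcases hi with rfl | hi
    · exact h9
    · exact h2 i hi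

theorem rigTab_sound (hv24 : v ≤ 24) (ht : t + 1 < v) (hB0 : ∀ b ∈ B0, b < 2 ^ v) (hθ : ∀ i < v, ∀ j < v, θ i = θ j → i = j)
    (hθv : ∀ i < v, θ i < v)
    (hP : ∀ c ∈ B0, ∃ c' ∈ B0, bits c' = (bits c).image θ) (hfix : ∀ i < t, θ i = i)
    {R : List (List (ℕ × ℕ) × List ℕ)} (hR : rigTab t v B0 R = true) : ∀ i < v, θ i = i := by
  unfold rigTab at hR
  rw [List.all_eq_true] at hR
  have h1 := hR (θ (t + 1)) (List.mem_range.2 (hθv _ ht))
  set r := (R.getD (θ (t + 1)) ([], [])).2 with hr
  set l := (R.getD (θ (t + 1)) ([], [])).1 with hl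
  rw [Bool.and_eq_true, Bool.and_eq_true, Bool.and_eq_true] at h1
  obtain ⟨⟨⟨h2, h3⟩, h4⟩, h5⟩ := h1
  rw [List.all_eq_true] at h2 h4
  rw [beq_iff_eq] at h3
  have h4' : ∀ i < v, r.getD i 0 < v := by
    intro i hi
    simpa [Nat.blt_eq] using h4 i (List.mem_range.2 hi)
  have hK : (2 ^ t - 1) ||| 1 <<< (t + 1) < 2 ^ v := by
    apply or_bit_lt _ ht
    have : 2 ^ t ≤ 2 ^ v := Nat.pow_le_pow_right (by norm_num) (by omega)
    have : 0 < 2 ^ t := by positivity
    omega
  have hK2 : ∀ i ∈ bits ((2 ^ t - 1) ||| 1 <<< (t + 1)), θ i = r.getD i 0 := by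
    intro i hi
    rw [bits_or_bit (by omega), mem_insert] at hi
    rcases hi with rfl | hi
    · exact h3.symm
    · rw [mem_bits, Nat.testBit_two_pow_sub_one] at hi
      have hit : i < t := by simpa using hi.2
      rw [hfix i hit]
      have := h2 i (List.mem_range.2 hit)
      rw [beq_iff_eq] at this
      exact this.symm
  split at h5
  · rename_i K e
    obtain ⟨k1, k2⟩ := rigRun_sound hv24 hB0 hθ hP h4' l _ K hK hK2 e
    rw [Bool.or_eq_true] at h5
    rcases h5 with h5 | h5
    · exfalso
      unfold rigFail at h5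
      rw [Bool.or_eq_true, List.any_eq_true, List.any_eq_true] at h5
      rcases h5 with ⟨b, hb, h6⟩ | ⟨i, hi, h6⟩
      · rw [Bool.and_eq_true, beq_iff_eq, Bool.not_eq_true'] at h6
        obtain ⟨c', hc', he⟩ := hP b hb
        have hb24 : b < 2 ^ 24 := lt_of_lt_of_le (hB0 b hb) (Nat.pow_le_pow_right (by norm_num) hv24)
        have hsub := (bits_and_self hb24).1 h6.1
        have h7 : bits (actL r v b) = (bits b).image θ := by
          rw [bits_actL r v hv24 h4' b (hB0 b hb)]
          apply Finset.image_congr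
          intro i hi
          exact (k2 i (hsub hi)).symm
        have h8 : c' = actL r v b := by
          apply bits_inj (lt_of_lt_of_le (hB0 c' hc') (Nat.pow_le_pow_right (by norm_num) hv24))
            (lt_of_lt_of_le (actL_lt r v h4' b) (Nat.pow_le_pow_right (by norm_num) hv24))
          rw [he, h7]
        have h9 : B0.any (fun c => c == actL r v b) = true := by
          rw [List.any_eq_true]; exact ⟨c', hc', by rw [h8]; simp⟩
        rw [h6.2] at h9
        exact absurd h9 (by simp)
      · rw [List.any_eq_true] at h6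
        obtain ⟨j, hj, h7⟩ := h6
        rw [Bool.and_eq_true, Bool.and_eq_true, beq_iff_eq] at h7
        rw [List.mem_range] at hi hj
        have e1 := k2 i (mem_bits.2 ⟨by omega, h7.1.1⟩)
        have e2 := k2 j (mem_bits.2 ⟨by omega, h7.1.2⟩)
        have := hθ i hi j (by omega) (by rw [e1, e2, h7.2])
        omega
    · unfold rigId at h5
      rw [Bool.and_eq_true, beq_iff_eq, List.all_eq_true] at h5
      intro i hi
      have h6 := h5.2 i (List.mem_range.2 hi)
      rw [beq_iff_eq] at h6
      rw [k2 i, h6]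
      rw [mem_bits, h5.1, Nat.testBit_two_pow_sub_one]
      exact ⟨by omega, by simpa using hi⟩
  · exact absurd h5 (by simp)

end rig

end Cfsg.Agent.Lib.SmallSt
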