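import Cfsg.Agent.Lib.SmallSt.Aut

/-!
Finite checks in the standard S(5, 6, 12).
-/

set_option autoImplicit false

namespace Cfsg.Agent.Lib.SmallSt

open Cfsg Finset
open scoped Pointwise
open Cfsg.Agent.Lib.Golay (pc pcAux pc_eq_pcAux)

theorem im_inj {α : Type*} [DecidableEq α] {ψ : ℕ → α} {v : ℕ} (hv : v ≤ 24) (h : Inj ψ v) {a b : ℕ} (ha : a < 2 ^ v)
    (hb : b < 2 ^ v) (he : im ψ a = im ψ b) : a = b := by
  apply bits_inj (lt_of_lt_of_le ha (Nat.pow_le_pow_right (by norm_num) hv))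
    (lt_of_lt_of_le hb (Nat.pow_le_pow_right (by norm_num) hv))
  ext i
  constructor
  · intro hi
    have : ψ i ∈ im ψ b := by rw [← he]; exact mem_image_of_mem ψ hi
    obtain ⟨j, hj, hje⟩ := mem_image.1 this
    rw [← h j (bits_lt hb hj) i (bits_lt ha hi) hje]; exact hj
  · intro hi
    have : ψ i ∈ im ψ a := by rw [he]; exact mem_image_of_mem ψ hi
    obtain ⟨j, hj, hje⟩ := mem_image.1 this
    rw [← h j (bits_lt ha hj) i (bits_lt hb hi) hje]; exact hj

variable {α : Type*} [Fintype α] [DecidableEq α] {B : Set (Finset α)}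

theorem B12_63 : (63 : ℕ) ∈ B12 := by decide +kernel

theorem exists_lab63 (hα : Fintype.card α = 12) (hB : IsSteinerSystem 5 6 B) {b : Finset α} (hb : b ∈ B) :
    ∃ ψ : ℕ → α, Lab cert12 B ψ ∧ im ψ 63 = b := by
  have h5 : 5 ≤ b.card := by rw [hB.1 b hb]; norm_num
  obtain ⟨s, hs1, hs2⟩ := Finset.exists_subset_card_eq h5
  let x : Fin 5 ↪ α := (Finset.equivFinOfCardEq hs2).symm.toEmbedding.trans (Function.Embedding.subtype _)
  have hx : ∀ i, x i ∈ s := fun i => ((Finset.equivFinOfCardEq hs2).symm i).2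
  obtain ⟨ψ, h, hψ⟩ := exists_lab cert12 hα hB x
  refine ⟨ψ, h, ?_⟩
  have h1 := h.blk 63 B12_63
  refine block_eq hB h1 hb ?_
  have h2 : (Finset.univ.map x) ⊆ im ψ 63 ∩ b := by
    intro y hy
    rw [mem_map] at hy
    obtain ⟨i, _, rfl⟩ := hy
    rw [mem_inter]
    refine ⟨?_, hs1 (hx i)⟩
    rw [← hψ i]
    apply mem_image_of_mem
    rw [mem_bits]
    refine ⟨by omega, ?_⟩
    have : ∀ i : Fin 5, Nat.testBit 63 i = true := by decide
    exact this i
  have h3 := Finset.card_le_card h2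
  rwa [Finset.card_map, Finset.card_univ, Fintype.card_fin] at h3

theorem B12_nodup : B12.Nodup := by decide +kernel

theorem B12_lt : ∀ c ∈ B12, c < 4096 := fun c hc => cert12.lt hc

/-- counting blocks with a property -/
theorem ncard_blocks (hα : Fintype.card α = 12) (hB : IsSteinerSystem 5 6 B) {ψ : ℕ → α} (h : Lab cert12 B ψ)
    {P : Finset α → Prop} {f : ℕ → Bool} (hP : ∀ c < 4096, P (im ψ c) ↔ f c = true) :
    {c : Finset α | c ∈ B ∧ P c}.ncard = (B12.filter f).length := by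
  have e : {c : Finset α | c ∈ B ∧ P c} = (((B12.filter f).toFinset.image (im ψ) : Finset (Finset α)) : Set (Finset α)) := by
    ext c
    rw [Finset.mem_coe, mem_image]
    constructor
    · rintro ⟨h1, h2⟩
      obtain ⟨m, hm, rfl⟩ := (h.iff cert12 hα hB c).1 h1
      exact ⟨m, List.mem_toFinset.2 (List.mem_filter.2 ⟨hm, (hP m (B12_lt m hm)).1 h2⟩), rfl⟩
    · rintro ⟨m, hm, rfl⟩
      rw [List.mem_toFinset, List.mem_filter] at hm
      exact ⟨h.blk m hm.1, (hP m (B12_lt m hm.1)).2 hm.2⟩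
  rw [e, Set.ncard_coe_finset, Finset.card_image_of_injOn, List.toFinset_card_of_nodup (B12_nodup.filter f)]
  intro a ha b hb hab
  rw [Finset.mem_coe, List.mem_toFinset, List.mem_filter] at ha hb
  exact im_inj (v := 12) (by norm_num) h.inj (B12_lt a ha.1) (B12_lt b hb.1) hab

theorem tri_data : ((List.range 64).all (fun m => (pc m != 2 || ((B12.filter (fun c => 63 &&& c == m)).length == 3)) &&
    (pc m != 3 || ((B12.filter (fun c => 63 &&& c == m)).length == 2)) &&
    (pc m != 4 || ((B12.filter (fun c => 63 &&& c == m)).length == 3))) &&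
    B12.all (fun c => c == 63 || (pc (63 &&& c) == 0 || pc (63 &&& c) == 2 || pc (63 &&& c) == 3 || pc (63 &&& c) == 4))) = true := by
  decide +kernel

theorem leech_triangle (hα : Fintype.card α = 12) (hB : IsSteinerSystem 5 6 B) {b : Finset α} (hb : b ∈ B) :
    (∀ c ∈ B, c ≠ b → (b ∩ c).card = 0 ∨ (b ∩ c).card = 2 ∨ (b ∩ c).card = 3 ∨ (b ∩ c).card = 4) ∧
    ∀ s ⊆ b, (s.card = 2 → {c : Finset α | c ∈ B ∧ b ∩ c = s}.ncard = 3) ∧
      (s.card = 3 → {c : Finset α | c ∈ B ∧ b ∩ c = s}.ncard = 2) ∧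
      (s.card = 4 → {c : Finset α | c ∈ B ∧ b ∩ c = s}.ncard = 3) := by
  obtain ⟨ψ, h, he⟩ := exists_lab63 hα hB hb
  have hd := tri_data
  rw [Bool.and_eq_true, List.all_eq_true, List.all_eq_true] at hd
  have hint : ∀ c < 4096, b ∩ im ψ c = im ψ (63 &&& c) := by
    intro c hc
    rw [← he]
    exact (im_and h.inj (n := 12) (by norm_num) hc).symm
  refine ⟨?_, ?_⟩
  · intro c hc hcb
    obtain ⟨m, hm, rfl⟩ := (h.iff cert12 hα hB c).1 hc
    rw [hint m (B12_lt m hm), card_im h.inj (lt_of_le_of_lt Nat.and_le_right (B12_lt m hm))]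
    have h1 := hd.2 m hm
    simp only [Bool.or_eq_true, beq_iff_eq] at h1
    rcases h1 with h1 | ((h1 | h1) | h1) | h1
    · exact absurd (by rw [h1, he]) hcb
    · exact Or.inl h1
    · exact Or.inr (Or.inl h1)
    · exact Or.inr (Or.inr (Or.inl h1))
    · exact Or.inr (Or.inr (Or.inr h1))
  · intro s hs
    obtain ⟨m, hm, hme⟩ := exists_im hα h.inj (by norm_num) s
    have hm64 : m < 64 := by
      have h1 : im ψ (63 &&& m) = im ψ m := by rw [← hint m hm, hme, Finset.inter_eq_right.2 hs]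
      have h2 := im_inj (v := 12) (by norm_num) h.inj (lt_of_le_of_lt Nat.and_le_right hm) hm h1
      rw [← h2]
      exact lt_of_le_of_lt Nat.and_le_left (by norm_num)
    have hcount : {c : Finset α | c ∈ B ∧ b ∩ c = s}.ncard = (B12.filter (fun c => 63 &&& c == m)).length := by
      apply ncard_blocks hα hB h
      intro c hc
      rw [hint c hc, ← hme, beq_iff_eq]
      constructor
      · intro e
        exact im_inj (v := 12) (by norm_num) h.inj (lt_of_le_of_lt Nat.and_le_right hc) hm e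
      · intro e; rw [e]
    have h1 := hd.1 m (List.mem_range.2 hm64)
    have hsc : s.card = pc m := by rw [← hme, card_im h.inj hm]
    simp only [Bool.and_eq_true, Bool.or_eq_true, beq_iff_eq, bne_iff_ne] at h1
    rw [hcount, hsc]
    refine ⟨fun e => ?_, fun e => ?_, fun e => ?_⟩
    · exact h1.1.1.resolve_left (fun h => h e)
    · exact h1.1.2.resolve_left (fun h => h e)
    · exact h1.2.resolve_left (fun h => h e)

end Cfsg.Agent.Lib.SmallSt
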